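/-
Matrix calculations in `SL_n` for the fusion system of `PSL_n` in defining characteristic.
-/
import Cfsg.Agent.Lib.SLn.Bru

set_option autoImplicit false

namespace Cfsg.Agent.Lib.PSLFus

open Cfsg Matrix Cfsg.Agent.Lib.SLn

open Cfsg.Agent.Lib.GLFlag (SLn)

variable {n : ℕ} {F : Type*} [Field F]

lemma xH_coe (a b : Fin n) (hab : a ≠ b) (t : F) :
    (xH a b hab (Multiplicative.ofAdd t)).1 = 1 + Matrix.single a b t := by
  ext k l
  rw [xH_apply, Matrix.add_apply, Matrix.single_apply]
  by_cases h : k = a ∧ l = b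
  · obtain ⟨rfl, rfl⟩ := h
    simp [hab]
  · rw [if_neg h, if_neg, add_zero]
    rintro ⟨h1, h2⟩
    exact h ⟨h1.symm, h2.symm⟩

lemma mul_xH (x : Matrix (Fin n) (Fin n) F) (a b : Fin n) (hab : a ≠ b) (t : F) (r s : Fin n) :
    (x * (xH a b hab (Multiplicative.ofAdd t)).1) r s = x r s + if s = b then x r a * t else 0 := by
  rw [xH_coe, Matrix.mul_add, Matrix.mul_one, Matrix.add_apply]
  congr 1
  split_ifs with h
  · subst h
    exact Matrix.mul_single_apply_same ..
  · exact Matrix.mul_single_apply_of_ne _ _ _ _ _ h _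

lemma xH_mul (x : Matrix (Fin n) (Fin n) F) (a b : Fin n) (hab : a ≠ b) (t : F) (r s : Fin n) :
    ((xH a b hab (Multiplicative.ofAdd t)).1 * x) r s = x r s + if r = a then t * x b s else 0 := by
  rw [xH_coe, Matrix.add_mul, Matrix.one_mul, Matrix.add_apply]
  congr 1
  split_ifs with h
  · subst h
    exact Matrix.single_mul_apply_same ..
  · exact Matrix.single_mul_apply_of_ne _ _ _ _ _ h _

/-- Commuting with a root element. -/
lemma comm_xH {x : SLn n F} {a b : Fin n} (hab : a ≠ b)
    (h : x * xH a b hab (Multiplicative.ofAdd 1) = xH a b hab (Multiplicative.ofAdd 1) * x) :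
    (∀ r, r ≠ a → x.1 r a = 0) ∧ (∀ s, s ≠ b → x.1 b s = 0) ∧ x.1 a a = x.1 b b := by
  have e : ∀ r s, (if s = b then x.1 r a * 1 else 0) = if r = a then 1 * x.1 b s else 0 := by
    intro r s
    have h1 := congrArg (fun g : SLn n F => g.1 r s) h
    simp only [Matrix.SpecialLinearGroup.coe_mul] at h1
    rw [mul_xH, xH_mul] at h1
    exact add_left_cancel h1
  refine ⟨fun r hr => ?_, fun s hs => ?_, ?_⟩
  · simpa [hr] using e r b
  · simpa [hs] using (e a s).symm
  · simpa using e a b

lemma exists_third (hn : 3 ≤ n) {a b : Fin n} (hadj : a.val + 1 = b.val) : ∃ e : Fin n, e < a ∨ b < e := by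
  by_cases h : a.val = 0
  · refine ⟨⟨2, by omega⟩, Or.inr ?_⟩
    show b.val < 2
    omega
  · refine ⟨⟨0, by omega⟩, Or.inl ?_⟩
    show 0 < a.val
    omega

/-- Elements commuting with the root elements other than `x_{ab}`. -/
lemma cent_entries (hn : 3 ≤ n) {a b : Fin n} (hadj : a.val + 1 = b.val) {x : SLn n F}
    (H : ∀ c d (hcd : c ≠ d), c < d → ¬ (c = a ∧ d = b) →
      x * xH c d hcd (Multiplicative.ofAdd 1) = xH c d hcd (Multiplicative.ofAdd 1) * x) :
    (∀ r s, s < r → x.1 r s = 0) ∧ (∀ k, x.1 k k = x.1 a a) ∧ x.1 a b = 0 := by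
  have C : ∀ c d, c < d → ¬ (c = a ∧ d = b) →
      (∀ r, r ≠ c → x.1 r c = 0) ∧ (∀ s, s ≠ d → x.1 d s = 0) ∧ x.1 c c = x.1 d d :=
    fun c d hlt hp => comm_xH hlt.ne (H c d hlt.ne hlt hp)
  have hablt : a < b := by
    show a.val < b.val
    omega
  obtain ⟨e, he⟩ := exists_third hn hadj
  refine ⟨fun r s hsr => ?_, fun k => ?_, ?_⟩
  · by_cases hp : s = a ∧ r = b
    · obtain ⟨rfl, rfl⟩ := hp
      rcases he with he | he
      · exact (C e r (he.trans hsr) (fun h => he.ne h.1)).2.1 s hsr.ne
      · exact (C s e (hsr.trans he) (fun h => he.ne' h.2)).1 r hsr.ne'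
    · exact (C s r hsr hp).1 r hsr.ne'
  · rcases lt_trichotomy k a with h | h | h
    · exact (C k a h (fun h' => h.ne h'.1)).2.2
    · rw [h]
    · by_cases hk : k = b
      · subst hk
        rcases he with he | he
        · have h1 := (C e a he (fun h' => he.ne h'.1)).2.2
          have h2 := (C e k (he.trans h) (fun h' => he.ne h'.1)).2.2
          exact h2.symm.trans h1
        · have h1 := (C a e (h.trans he) (fun h' => he.ne' h'.2)).2.2
          have h2 := (C k e he (fun h' => h.ne' h'.1)).2.2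
          exact h2.trans h1.symm
      · exact (C a k h (fun h' => hk h'.2)).2.2.symm
  · rcases he with he | he
    · exact (C e a he (fun h' => he.ne h'.1)).2.1 b hablt.ne'
    · exact (C b e he (fun h' => hablt.ne' h'.1)).1 a hablt.ne

/-- The central elements of the unitriangular group. -/
lemma central_UU [Finite F] {z : SLn n F} (hz : z ∈ UU n F)
    (H : ∀ c d (hcd : c ≠ d), c < d → z * xH c d hcd (Multiplicative.ofAdd 1) = xH c d hcd (Multiplicative.ofAdd 1) * z)
    (f l : Fin n) (hf : f.val = 0) (hl : l.val + 1 = n) (hfl : f ≠ l) :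
    z = xH f l hfl (Multiplicative.ofAdd (z.1 f l)) := by
  apply Subtype.ext
  ext r s
  rw [xH_apply]
  by_cases h : r = f ∧ s = l
  · obtain ⟨rfl, rfl⟩ := h
    simp
  · rw [if_neg h]
    by_cases hrs : r = s
    · subst hrs
      rw [hz.2, Matrix.one_apply_eq]
    · rw [Matrix.one_apply_ne hrs]
      by_cases hs : s = l
      · have hr : r ≠ f := fun e => h ⟨e, hs⟩
        have hlt : f < r := by
          show f.val < r.val
          have : r.val ≠ f.val := fun e => hr (Fin.ext e)
          omega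
        exact (comm_xH hlt.ne (H f r hlt.ne hlt)).2.1 s (Ne.symm hrs)
      · have hlt : s < l := by
          show s.val < l.val
          have : s.val ≠ l.val := fun e => hs (Fin.ext e)
          have := s.2
          omega
        exact (comm_xH hlt.ne (H s l hlt.ne hlt)).1 r hrs

lemma mono_coef_ne {m : SLn n F} {w : Equiv.Perm (Fin n)} (hm : IsMono m.1 w) (a : Fin n) :
    m.1 (w a) a ≠ 0 ∧ (m⁻¹ : SLn n F).1 a (w a) ≠ 0 := by
  have h := IsMono.diag_mul hm (coe_inv_mul m) a
  constructor
  · intro h0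
    rw [h0, mul_zero] at h
    exact zero_ne_one h
  · intro h0
    rw [h0, zero_mul] at h
    exact zero_ne_one h

/-- Conjugates of root elements by monomial matrices. -/
lemma mono_conj_xH {m : SLn n F} {w : Equiv.Perm (Fin n)} (hm : IsMono m.1 w) {a b c d : Fin n} (hab : a ≠ b) (hcd : c ≠ d)
    (hc : w a = c) (hd : w b = d) (α : F) :
    m * xH a b hab (Multiplicative.ofAdd α) * m⁻¹ =
      xH c d hcd (Multiplicative.ofAdd (m.1 c a * (m⁻¹ : SLn n F).1 b d * α)) := by
  subst hc hd
  apply Subtype.ext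
  ext k l
  have hmi : IsMono (m⁻¹ : SLn n F).1 w⁻¹ := IsMono.inv hm
  have hm' : IsMono m.1 (w⁻¹)⁻¹ := by simpa using hm
  have e := conj_apply hmi hm' (xH a b hab (Multiplicative.ofAdd α)).1 k l
  show (m.1 * (xH a b hab (Multiplicative.ofAdd α)).1 * (m⁻¹ : SLn n F).1) k l = _
  rw [e, xH_apply, xH_apply]
  by_cases h : k = w a ∧ l = w b
  · obtain ⟨rfl, rfl⟩ := h
    have h1 : (w⁻¹) (w a) = a := by simp
    have h2 : (w⁻¹) (w b) = b := by simp
    rw [h1, h2, if_pos ⟨rfl, rfl⟩, if_pos ⟨rfl, rfl⟩]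
    ring
  · have h' : ¬ ((w⁻¹) k = a ∧ (w⁻¹) l = b) := by
      rintro ⟨h1, h2⟩
      apply h
      constructor
      · rw [← h1]; simp
      · rw [← h2]; simp
    rw [if_neg h, if_neg h']
    by_cases e1 : k = l
    · subst e1
      rw [Matrix.one_apply_eq, Matrix.one_apply_eq, mul_one]
      have h2 := congrFun (congrFun (coe_mul_inv m) k) k
      rw [hm.apply_mul, Matrix.one_apply_eq] at h2
      exact h2
    · rw [Matrix.one_apply_ne e1, Matrix.one_apply_ne (fun e2 => e1 ((w⁻¹).injective e2))]
      simp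

/-- A permutation moving a pair to a pair. -/
lemma exists_perm {a b c d : Fin n} (hab : a ≠ b) (hcd : c ≠ d) : ∃ w : Equiv.Perm (Fin n), w a = c ∧ w b = d := by
  refine ⟨Equiv.swap (Equiv.swap a c b) d * Equiv.swap a c, ?_, ?_⟩
  · rw [Equiv.Perm.mul_apply, Equiv.swap_apply_left]
    apply Equiv.swap_apply_of_ne_of_ne _ hcd
    intro h
    have h2 : Equiv.swap a c c = Equiv.swap a c (Equiv.swap a c b) := congrArg _ h
    rw [Equiv.swap_apply_right, Equiv.swap_apply_self] at h2
    exact hab h2
  · rw [Equiv.Perm.mul_apply, Equiv.swap_apply_left]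

section Finite

variable [Finite F]

/-- The root subgroups above the diagonal generate the unitriangular group. -/
theorem UU_gen (K : Subgroup (SLn n F))
    (hK : ∀ c d (hcd : c ≠ d), c < d → ∀ t : F, xH c d hcd (Multiplicative.ofAdd t) ∈ K) : UU n F ≤ K := by
  have key : ∀ m j : ℕ, j + m = n → ∀ u ∈ UU n F, (∀ r s : Fin n, r < s → s.val < j → u.1 r s = 0) → u ∈ K := by
    intro m
    induction m with
    | zero =>
      intro j hj u hu h
      have : u = 1 := by
        apply Subtype.ext
        ext r s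
        rw [Matrix.SpecialLinearGroup.coe_one]
        rcases lt_trichotomy r s with h1 | h1 | h1
        · rw [h r s h1 (by have := s.2; omega), Matrix.one_apply_ne h1.ne]
        · rw [h1, hu.2, Matrix.one_apply_eq]
        · rw [hu.1 r s h1, Matrix.one_apply_ne h1.ne']
      rw [this]
      exact one_mem _
    | succ m ih =>
      intro j hj
      have hjn : j < n := by omega
      let J : Fin n := ⟨j, hjn⟩
      have inner : ∀ i : ℕ, i ≤ j → ∀ u ∈ UU n F, (∀ r s : Fin n, r < s → s.val < j → u.1 r s = 0) →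
          (∀ r : Fin n, i ≤ r.val → r.val < j → u.1 r J = 0) → u ∈ K := by
        intro i
        induction i with
        | zero =>
          intro _ u hu h1 h2
          refine ih (j + 1) (by omega) u hu fun r s hrs hs => ?_
          by_cases e : s.val < j
          · exact h1 r s hrs e
          · have hsJ : s = J := Fin.ext (by show s.val = j; omega)
            rw [hsJ]
            refine h2 r (Nat.zero_le _) ?_
            have h3 : r.val < s.val := hrs
            omega
        | succ i ihi =>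
          intro hi u hu h1 h2
          have hin : i < n := by omega
          let I : Fin n := ⟨i, hin⟩
          have hIJ : I < J := by
            show i < j
            omega
          let t : F := -u.1 I J
          have hx : xH I J hIJ.ne (Multiplicative.ofAdd t) ∈ UU n F := xH_mem_UU I J hIJ.ne hIJ _
          have hk1 : xH I J hIJ.ne (Multiplicative.ofAdd t) ∈ K := hK I J hIJ.ne hIJ t
          have e : ∀ r s, (u * xH I J hIJ.ne (Multiplicative.ofAdd t)).1 r s = u.1 r s + if s = J then u.1 r I * t else 0 := by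
            intro r s
            rw [Matrix.SpecialLinearGroup.coe_mul, mul_xH]
          have h3 : u * xH I J hIJ.ne (Multiplicative.ofAdd t) ∈ K := by
            refine ihi (by omega) _ (mul_mem hu hx) (fun r s hrs hs => ?_) fun r hr1 hr2 => ?_
            · have hsJ : s ≠ J := by
                intro h4
                rw [h4] at hs
                exact lt_irrefl _ hs
              rw [e, if_neg hsJ, add_zero]
              exact h1 r s hrs hs
            · rw [e, if_pos rfl]
              by_cases hrI : r = I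
              · rw [hrI, hu.2]
                simp [t]
              · have h4 : I < r := by
                  show i < r.val
                  have : r.val ≠ i := fun e' => hrI (Fin.ext e')
                  omega
                rw [h2 r (by have : r.val ≠ i := fun e' => hrI (Fin.ext e'); omega) hr2, hu.1 r I h4]
                simp
          have e2 : u = (u * xH I J hIJ.ne (Multiplicative.ofAdd t)) * (xH I J hIJ.ne (Multiplicative.ofAdd t))⁻¹ := by group
          rw [e2]
          exact mul_mem h3 (inv_mem hk1)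
      intro u hu h
      exact inner j le_rfl u hu h fun r h1 h2 => absurd h2 (not_lt.2 h1)
  intro u hu
  exact key n 0 (by omega) u hu fun r s _ h => absurd h (Nat.not_lt_zero _)

/-- The unitriangular elements with vanishing entry at an adjacent position. -/
def UA {a b : Fin n} (hadj : a.val + 1 = b.val) : Subgroup (SLn n F) := subOf
  { carrier := {u | u ∈ UU n F ∧ u.1 a b = 0}
    one_mem' := by
      refine ⟨one_mem _, Matrix.one_apply_ne ?_⟩
      intro e
      rw [e] at hadj
      omega
    mul_mem' := by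
      rintro x y ⟨hx, hx0⟩ ⟨hy, hy0⟩
      refine ⟨mul_mem hx hy, ?_⟩
      rw [mul_apply_adj hx hy hadj, hx0, hy0, add_zero] }

lemma mem_UA {a b : Fin n} {hadj : a.val + 1 = b.val} {u : SLn n F} : u ∈ UA hadj ↔ u ∈ UU n F ∧ u.1 a b = 0 := Iff.rfl

lemma UA_le {a b : Fin n} (hadj : a.val + 1 = b.val) : UA (F := F) hadj ≤ UU n F := fun _ h => h.1

lemma UA_normal {a b : Fin n} {hadj : a.val + 1 = b.val} {v y : SLn n F} (hv : v ∈ UU n F) (hy : y ∈ UA hadj) :
    v * y * v⁻¹ ∈ UA hadj := by
  have hne : a ≠ b := by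
    intro e
    rw [e] at hadj
    omega
  refine ⟨mul_mem (mul_mem hv hy.1) (inv_mem hv), ?_⟩
  rw [mul_apply_adj (mul_mem hv hy.1) (inv_mem hv) hadj, mul_apply_adj hv hy.1 hadj, hy.2, add_zero]
  have h := mul_apply_adj hv (inv_mem hv) hadj
  rw [mul_inv_cancel, Matrix.SpecialLinearGroup.coe_one, Matrix.one_apply_ne hne] at h
  exact h.symm

lemma UA_swap {a b : Fin n} {hadj : a.val + 1 = b.val} {m y : SLn n F} (hm : IsMono m.1 (Equiv.swap a b)) (hy : y ∈ UA hadj) :
    m⁻¹ * y * m ∈ UA hadj := by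
  have hlt : a < b := by
    show a.val < b.val
    omega
  refine ⟨conj_mem_UU hm (fun k => hy.1.2 _) fun k l hl => ?_, ?_⟩
  · by_cases h : Equiv.swap a b l < Equiv.swap a b k
    · exact hy.1.1 _ _ h
    · obtain ⟨rfl, rfl⟩ := swap_order hadj hl h
      rw [Equiv.swap_apply_left, Equiv.swap_apply_right]
      exact hy.2
  · have e := conj_apply hm (IsMono.inv hm) y.1 a b
    show ((m⁻¹ : SLn n F).1 * y.1 * m.1) a b = 0
    rw [e, Equiv.swap_apply_left, Equiv.swap_apply_right, hy.1.1 b a hlt]
    simp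

lemma UA_entry {a b : Fin n} (hadj : a.val + 1 = b.val) {m y : SLn n F} (hm : IsMono m.1 (Equiv.swap a b))
    (h : m⁻¹ * y * m ∈ UU n F) : y.1 a b = 0 := by
  have hlt : a < b := by
    show a.val < b.val
    omega
  have h1 := h.1 b a hlt
  have e := conj_apply hm (IsMono.inv hm) y.1 b a
  have e' : (m⁻¹ * y * m : SLn n F).1 b a = _ := e
  rw [e', Equiv.swap_apply_left, Equiv.swap_apply_right] at h1
  have h2 := (mono_coef_ne hm b).2
  have h3 := (mono_coef_ne hm a).1
  rw [Equiv.swap_apply_right] at h2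
  rw [Equiv.swap_apply_left] at h3
  rcases mul_eq_zero.1 h1 with h4 | h4
  · rcases mul_eq_zero.1 h4 with h5 | h5
    · exact absurd h5 h2
    · exact h5
  · exact absurd h4 h3

/-- The lower unipotent elements of `SL₂`. -/
def Ym (t : F) : Matrix.SpecialLinearGroup (Fin 2) F := ⟨!![1, 0; t, 1], by simp [det_fin_two]⟩

/-- The anti-diagonal elements of `SL₂`. -/
def Wm (c : Fˣ) : Matrix.SpecialLinearGroup (Fin 2) F := ⟨!![0, (c : F); -((c⁻¹ : Fˣ) : F), 0], by simp [det_fin_two]⟩

lemma Sm_conj_Xm (e : F) : Sm * Xm e * Sm⁻¹ = Ym (-e) := by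
  rw [mul_inv_eq_iff_eq_mul]
  apply Subtype.ext
  simp only [Matrix.SpecialLinearGroup.coe_mul]
  ext i j
  fin_cases i <;> fin_cases j <;> simp [Xm, Sm, Ym, Matrix.mul_apply, Fin.sum_univ_two]

lemma XYX_eq (c : Fˣ) : Xm (c : F) * Ym (-((c⁻¹ : Fˣ) : F)) * Xm (c : F) = Wm c := by
  have hci : (c : F) * ((c⁻¹ : Fˣ) : F) = 1 := by simp
  apply Subtype.ext
  simp only [Matrix.SpecialLinearGroup.coe_mul]
  ext i j
  fin_cases i <;> fin_cases j <;> simp [Xm, Ym, Wm, Matrix.mul_apply, Fin.sum_univ_two, hci]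

lemma Hm_mul_Wm (c : Fˣ) : Hm c * Wm 1 = Wm c := by
  apply Subtype.ext
  simp only [Matrix.SpecialLinearGroup.coe_mul]
  ext i j
  fin_cases i <;> fin_cases j <;> simp [Hm, Wm, Matrix.mul_apply, Fin.sum_univ_two]

/-- The identity in `SL₂` producing the diagonal elements from root elements. -/
lemma Hm_eq (c : Fˣ) : Hm c = (Xm (c : F) * (Sm * Xm ((c⁻¹ : Fˣ) : F) * Sm⁻¹) * Xm (c : F)) *
    (Xm (1 : F) * (Sm * Xm (1 : F) * Sm⁻¹) * Xm (1 : F))⁻¹ := by
  have h1 := XYX_eq c
  have h2 := XYX_eq (F := F) 1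
  rw [Sm_conj_Xm, Sm_conj_Xm, eq_mul_inv_iff_mul_eq]
  have e : (((1 : Fˣ)⁻¹ : Fˣ) : F) = 1 := by simp
  rw [h1]
  rw [e, Units.val_one] at h2
  rw [h2, Hm_mul_Wm]

end Finite

end Cfsg.Agent.Lib.PSLFus
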