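/-
`SL_n` and a surjection with kernel the centre: the unitriangular group, its normalizer, and centralizers.
-/
import Cfsg.Agent.Lib.PSLFus.SL
import Cfsg.Agent.Lib.PSLFus.Gen

set_option autoImplicit false

namespace Cfsg.Agent.Lib.PSLFus

open Cfsg Matrix Cfsg.Agent.Lib.SLn Cfsg.FusionSystem Cfsg.Agent.Lib.Fusion

open Cfsg.Agent.Lib.GLFlag (SLn)

variable {n : ℕ} {F : Type*} [Field F] [Finite F] {G : Type*} [Group G]

lemma center_scalar {z : SLn n F} (hz : z ∈ Subgroup.center (SLn n F)) :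
    ∃ c : F, ∀ r s, z.1 r s = if r = s then c else 0 := by
  obtain ⟨c, -, hc⟩ := Matrix.SpecialLinearGroup.mem_center_iff.1 hz
  refine ⟨c, fun r s => ?_⟩
  rw [← hc]
  by_cases h : r = s
  · subst h
    simp
  · simp [h]

lemma eq_one_of_scalar {z : SLn n F} (h : ∀ r s, z.1 r s = if r = s then (1 : F) else 0) : z = 1 := by
  apply Subtype.ext
  ext r s
  rw [h, Matrix.SpecialLinearGroup.coe_one, Matrix.one_apply]

lemma isMono_of_scalar {z : SLn n F} {c : F} (h : ∀ r s, z.1 r s = if r = s then c else 0) : IsMono z.1 1 :=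
  fun i j hij => by
    rw [h]
    exact if_neg hij

/-- The scalar elements. -/
def zz (c : F) (hc : c ^ n = 1) : SLn n F :=
  ⟨Matrix.scalar (Fin n) c, by
    rw [Matrix.scalar_apply, Matrix.det_diagonal, Finset.prod_const, Finset.card_univ, Fintype.card_fin]
    exact hc⟩

lemma zz_apply (c : F) (hc : c ^ n = 1) (r s : Fin n) : (zz c hc).1 r s = if r = s then c else 0 := by
  show Matrix.scalar (Fin n) c r s = _
  by_cases h : r = s
  · subst h
    simp
  · simp [h]

lemma zz_center (c : F) (hc : c ^ n = 1) : zz c hc ∈ Subgroup.center (SLn n F) :=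
  Matrix.SpecialLinearGroup.mem_center_iff.2 ⟨c, by simpa using hc, rfl⟩

lemma zz_mul (c : F) (hc : c ^ n = 1) (x : SLn n F) (r s : Fin n) : (zz c hc * x).1 r s = c * x.1 r s := by
  have hm : IsMono (zz c hc).1 1 := isMono_of_scalar (zz_apply c hc)
  rw [Matrix.SpecialLinearGroup.coe_mul, hm.apply_mul]
  simp [zz_apply]

section Theta

variable (Θ : SLn n F →* G) (hk : Θ.ker = Subgroup.center (SLn n F))

include hk

lemma eq_of_map_eq (hn : 0 < n) {g y : SLn n F} (hg : ∀ k, g.1 k k = 1) (hy : y ∈ UU n F) (h : Θ g = Θ y) : g = y := by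
  have hz : y⁻¹ * g ∈ Subgroup.center (SLn n F) := by
    rw [← hk, MonoidHom.mem_ker, map_mul, map_inv, h, inv_mul_cancel]
  obtain ⟨c, hc⟩ := center_scalar hz
  have hm : IsMono (y⁻¹ * g : SLn n F).1 1 := isMono_of_scalar hc
  have e : g = y * (y⁻¹ * g) := by group
  have hcc : c = 1 := by
    let k : Fin n := ⟨0, hn⟩
    have h1 : g.1 k k = (y * (y⁻¹ * g)).1 k k := by rw [← e]
    rw [hg, Matrix.SpecialLinearGroup.coe_mul, hm.mul_apply] at h1
    simp only [Equiv.Perm.one_apply] at h1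
    rw [hy.2, hc, if_pos rfl, one_mul] at h1
    exact h1.symm
  subst hcc
  have h2 := eq_one_of_scalar hc
  rw [e, h2, mul_one]

lemma comm_lift (p : ℕ) [hp : Fact p.Prime] [CharP F p] (hn : 0 < n) {x u : SLn n F} (hu : u ∈ UU n F)
    (h : Θ x * Θ u = Θ u * Θ x) : x * u = u * x := by
  have hz : x * u * x⁻¹ * u⁻¹ ∈ Subgroup.center (SLn n F) := by
    rw [← hk, MonoidHom.mem_ker, map_mul, map_mul, map_mul, map_inv, map_inv, h]
    group
  obtain ⟨c, hc⟩ := center_scalar hz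
  obtain ⟨k, hk1⟩ := UU_pGroup (F := F) p hn ⟨u, hu⟩
  have hk2 : u ^ p ^ k = 1 := by
    have := congrArg (fun z : UU n F => (z : SLn n F)) hk1
    simpa using this
  set z := x * u * x⁻¹ * u⁻¹ with hzd
  have hcomm : Commute z u := by
    have := (Subgroup.mem_center_iff.1 hz) u
    exact this.symm
  have e1 : (x * u * x⁻¹) = z * u := by
    rw [hzd]
    group
  have e2 : z ^ p ^ k = 1 := by
    have h3 : (x * u * x⁻¹) ^ p ^ k = 1 := by
      rw [conj_pow, hk2]
      group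
    rw [e1, hcomm.mul_pow, hk2, mul_one] at h3
    exact h3
  have hzdiag : z.1 = Matrix.diagonal fun _ => c := by
    ext r s
    rw [hc]
    by_cases e : r = s
    · subst e
      simp
    · simp [e]
  have hcpow : c ^ p ^ k = 1 := by
    have h4 : (z ^ p ^ k).1 = Matrix.diagonal fun _ => c ^ p ^ k := by
      rw [Matrix.SpecialLinearGroup.coe_pow, hzdiag, Matrix.diagonal_pow]
      rfl
    rw [e2, Matrix.SpecialLinearGroup.coe_one] at h4
    have h5 := congrFun (congrFun h4 ⟨0, hn⟩) ⟨0, hn⟩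
    simpa using h5.symm
  have hc1 : c = 1 := by
    have h6 : (c - 1) ^ p ^ k = 0 := by
      rw [sub_pow_char_pow, hcpow, one_pow, sub_self]
    exact sub_eq_zero.1 (pow_eq_zero_iff (pow_ne_zero _ hp.out.ne_zero) |>.1 h6)
  subst hc1
  have h7 := eq_one_of_scalar hc
  have h8 : x * u * x⁻¹ = u := by
    rw [e1, h7, one_mul]
  calc x * u = x * u * x⁻¹ * x := by group
    _ = u * x := by rw [h8]

/-- The centralizer of the elements with vanishing entry. -/
lemma cent_lift (p : ℕ) [Fact p.Prime] [CharP F p] (hn : 3 ≤ n) {a b : Fin n} (hadj : a.val + 1 = b.val) {x : SLn n F}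
    (h : ∀ r ∈ (UA (F := F) hadj).map Θ, r * Θ x = Θ x * r) : ∃ v ∈ UA (F := F) hadj, Θ v = Θ x := by
  have hn0 : 0 < n := by omega
  have hab : a ≠ b := by
    intro e
    rw [e] at hadj
    omega
  have H : ∀ c d (hcd : c ≠ d), c < d → ¬ (c = a ∧ d = b) →
      x * xH c d hcd (Multiplicative.ofAdd 1) = xH c d hcd (Multiplicative.ofAdd 1) * x := by
    intro c d hcd hlt hp
    have hy : xH c d hcd (Multiplicative.ofAdd (1 : F)) ∈ UA (F := F) hadj := by
      refine ⟨xH_mem_UU c d hcd hlt _, ?_⟩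
      rw [xH_apply, if_neg (fun e => hp ⟨e.1.symm, e.2.symm⟩), Matrix.one_apply_ne hab]
    have h1 := h _ ⟨_, hy, rfl⟩
    exact comm_lift Θ hk p hn0 hy.1 h1.symm
  obtain ⟨hup, hdiag, hab0⟩ := cent_entries hn hadj H
  set c := x.1 a a with hc
  have hdet : c ^ n = 1 := by
    have h1 : x.1.BlockTriangular id := fun k l hl => hup k l hl
    have h2 := Matrix.det_of_isUpperTriangular h1
    rw [x.2] at h2
    rw [h2, Finset.prod_congr rfl fun k _ => hdiag k, Finset.prod_const, Finset.card_univ, Fintype.card_fin]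
  have hc0 : c ≠ 0 := by
    intro h0
    rw [h0, zero_pow hn0.ne'] at hdet
    exact zero_ne_one hdet
  have hdi : c⁻¹ ^ n = 1 := by
    rw [inv_pow, hdet, inv_one]
  refine ⟨zz c⁻¹ hdi * x, ⟨⟨fun k l hl => ?_, fun k => ?_⟩, ?_⟩, ?_⟩
  · rw [zz_mul, hup k l hl, mul_zero]
  · rw [zz_mul, hdiag k, inv_mul_cancel₀ hc0]
  · rw [zz_mul, hab0, mul_zero]
  · have h1 : zz c⁻¹ hdi ∈ Θ.ker := by
      rw [hk]
      exact zz_center _ _
    rw [map_mul, MonoidHom.mem_ker.1 h1, one_mul]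

lemma conj_diag {m y : SLn n F} {w : Equiv.Perm (Fin n)} (hm : IsMono m.1 w) (hy : y ∈ UU n F) (k : Fin n) :
    (m⁻¹ * y * m : SLn n F).1 k k = 1 := by
  have e : (m⁻¹ * y * m : SLn n F).1 k k = _ := conj_apply hm (IsMono.inv hm) y.1 k k
  rw [e, hy.2, mul_one]
  exact IsMono.diag_mul hm (coe_inv_mul m) k

lemma mono_conj_mem (hn : 0 < n) {m y : SLn n F} {w : Equiv.Perm (Fin n)} (hm : IsMono m.1 w) (hy : y ∈ UU n F)
    (h : Θ (m⁻¹ * y * m) ∈ (UU n F).map Θ) : m⁻¹ * y * m ∈ UU n F := by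
  obtain ⟨y', hy', e⟩ := h
  have := eq_of_map_eq Θ hk hn (g := m⁻¹ * y * m) (y := y') (conj_diag Θ hk hm hy) hy' e.symm
  rw [this]
  exact hy'

/-- The normalizer of the image of the unitriangular group. -/
lemma norm_form (hn : 0 < n) {g : SLn n F} (hg : Θ g ∈ Subgroup.normalizer (((UU n F).map Θ : Subgroup G) : Set G)) :
    ∃ u ∈ UU n F, ∃ t ∈ TT n F, g = u * t := by
  obtain ⟨u₁, hu₁, m, w, hm, u₂, hu₂, rfl⟩ := exists_bruhat_SL g
  have hS : ∀ u ∈ UU n F, Θ u ∈ Subgroup.normalizer (((UU n F).map Θ : Subgroup G) : Set G) := fun u hu =>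
    Subgroup.le_normalizer ⟨u, hu, rfl⟩
  have hm' : Θ m ∈ Subgroup.normalizer (((UU n F).map Θ : Subgroup G) : Set G) := by
    have e : Θ m = (Θ u₁)⁻¹ * Θ (u₁ * m * u₂) * (Θ u₂)⁻¹ := by
      rw [map_mul, map_mul]
      group
    rw [e]
    exact mul_mem (mul_mem (inv_mem (hS _ hu₁)) hg) (inv_mem (hS _ hu₂))
  have hsm : StrictMono (fun k => (w⁻¹) k) := by
    intro a b hab
    have hne := hab.ne
    have hy : xH a b hne (Multiplicative.ofAdd (1 : F)) ∈ UU n F := xH_mem_UU a b hne hab _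
    have h1 : Θ (m⁻¹ * xH a b hne (Multiplicative.ofAdd (1 : F)) * m) ∈ (UU n F).map Θ := by
      have h2 := conj_mem_of_mem_normalizer (inv_mem hm') (Subgroup.mem_map_of_mem Θ hy)
      rw [inv_inv] at h2
      rw [map_mul, map_mul, map_inv]
      exact h2
    have h3 := mono_conj_mem Θ hk hn hm hy h1
    by_contra hcon
    have h4 : (w⁻¹) b < (w⁻¹) a := by
      refine lt_of_le_of_ne (not_lt.1 hcon) fun e => hne ((w⁻¹).injective e).symm
    have h5 := h3.1 _ _ h4
    have e : (m⁻¹ * xH a b hne (Multiplicative.ofAdd (1 : F)) * m : SLn n F).1 ((w⁻¹) a) ((w⁻¹) b) = _ :=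
      conj_apply hm (IsMono.inv hm) _ _ _
    rw [e] at h5
    have e1 : w ((w⁻¹) a) = a := by simp
    have e2 : w ((w⁻¹) b) = b := by simp
    have h6 := (mono_coef_ne hm ((w⁻¹) a)).2
    have h7 := (mono_coef_ne hm ((w⁻¹) b)).1
    rw [e1, e2, xH_entry] at h5
    rw [e1] at h6
    rw [e2] at h7
    simp only [toAdd_ofAdd, mul_one] at h5
    rcases mul_eq_zero.1 h5 with h8 | h8
    · exact h6 h8
    · exact h7 h8
  have hsurj : Function.Surjective (fun k => (w⁻¹) k) := (w⁻¹).surjective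
  have h3 : (fun k => (w⁻¹) k) = id :=
    (hsm.range_inj strictMono_id).1 (by rw [hsurj.range_eq]; simp)
  have hw : w = 1 := by
    ext k
    have h4 := congrFun h3 (w k)
    simp only [id_eq] at h4
    have h5 : (w⁻¹) (w k) = k := by simp
    rw [h5] at h4
    rw [← h4]
    rfl
  subst hw
  have hmT : m ∈ TT n F := hm
  refine ⟨u₁ * (m * u₂ * m⁻¹), mul_mem hu₁ ?_, m, hmT, by group⟩
  have := TT_conj_UU (inv_mem hmT) hu₂
  rwa [inv_inv] at this

/-- The image of the unitriangular group is Sylow. -/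
lemma exists_sylow [Finite G] [Fintype F] (p : ℕ) [hp : Fact p.Prime] [CharP F p] (hn : 0 < n) (hs : Function.Surjective Θ) :
    ∃ S₀ : Sylow p G, (S₀ : Subgroup G) = (UU n F).map Θ := by
  have hP : IsPGroup p ((UU n F).map Θ : Subgroup G) := (UU_pGroup p hn).map Θ
  obtain ⟨S₀, hle⟩ := hP.exists_le_sylow
  refine ⟨S₀, le_antisymm ?_ hle⟩
  by_contra hcon
  have hlt : (UU n F).map Θ < (S₀ : Subgroup G) := lt_of_le_of_ne hle fun e => hcon e.ge
  have hlt' := lt_normalizerIn S₀.isPGroup' hlt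
  obtain ⟨g, hg, hg'⟩ := SetLike.exists_of_lt hlt'
  obtain ⟨hgS, hgN⟩ := mem_normalizerIn.1 hg
  obtain ⟨x, rfl⟩ := hs g
  obtain ⟨u, hu, t, ht, rfl⟩ := norm_form Θ hk hn hgN
  have h1 : Θ t ∈ (S₀ : Subgroup G) := by
    have e : Θ t = (Θ u)⁻¹ * Θ (u * t) := by
      rw [map_mul]
      group
    rw [e]
    exact mul_mem (inv_mem (hle ⟨u, hu, rfl⟩)) hgS
  obtain ⟨k, hk1⟩ := S₀.isPGroup' ⟨_, h1⟩
  have hk2 : Θ t ^ p ^ k = 1 := by
    have := congrArg (fun z : (S₀ : Subgroup G) => (z : G)) hk1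
    simpa using this
  have hk3 : Θ t ^ (Fintype.card F - 1) = 1 := by
    rw [← map_pow, TT_pow_card ht, map_one]
  have hcop : Nat.Coprime (p ^ k) (Fintype.card F - 1) := by
    refine Nat.Coprime.pow_left k ((Nat.Prime.coprime_iff_not_dvd hp.out).2 fun h => ?_)
    obtain ⟨f, _, hf⟩ := FiniteField.card F p
    have h3 : p ∣ Fintype.card F := by
      rw [hf]
      exact dvd_pow_self p f.pos.ne'
    have h4 : p ∣ 1 := by
      have h5 : Fintype.card F = (Fintype.card F - 1) + 1 := (Nat.sub_add_cancel Fintype.card_pos).symm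
      rw [h5] at h3
      exact (Nat.dvd_add_right h).1 h3
    exact hp.out.one_lt.ne' (Nat.dvd_one.1 h4)
  have h5 : Θ t = 1 := by
    have h6 := pow_gcd_eq_one.2 ⟨hk2, hk3⟩
    rw [hcop.gcd_eq_one, pow_one] at h6
    exact h6
  apply hg'
  rw [map_mul, h5, mul_one]
  exact ⟨u, hu, rfl⟩

end Theta

end Cfsg.Agent.Lib.PSLFus
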