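/-
The fusion system of `PSL_n` in defining characteristic is simple.
-/
import Cfsg.Agent.Lib.PSLFus.Theta
import Cfsg.Agent.Lib.Char.Product

set_option autoImplicit false

namespace Cfsg.Agent.Lib.PSLFus

open Cfsg Matrix Cfsg.Agent.Lib.SLn Cfsg.FusionSystem Cfsg.Agent.Lib.Fusion

open Cfsg.Agent.Lib.GLFlag (SLn)

variable {n : ℕ} {F : Type*} [Field F] [Fintype F] {G : Type*} [Group G] [Finite G] {p : ℕ} [hp : Fact p.Prime] [CharP F p]

section Main

variable (Θ : SLn n F →* G) (hk : Θ.ker = Subgroup.center (SLn n F)) (S : Sylow p G)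
  (hS : (S : Subgroup G) = (UU n F).map Θ)

include hk hS

/-- Strongly closed subgroups. -/
theorem sc_trivial (hn : 3 ≤ n) (T : Subgroup G) (hT : (groupFusionSystem (S : Subgroup G)).StronglyClosed T) :
    T = ⊥ ∨ T = (S : Subgroup G) := by
  by_cases hbot : T = ⊥
  · exact Or.inl hbot
  refine Or.inr ?_
  have hn0 : 0 < n := by omega
  have hTS : T ≤ (S : Subgroup G) := hT.1
  let T₀ : Subgroup (SLn n F) := T.comap Θ
  have hconj : ∀ y ∈ T₀, ∀ g : SLn n F, g * y * g⁻¹ ∈ UU n F → g * y * g⁻¹ ∈ T₀ := by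
    intro y hy g h
    have h1 : Θ g * Θ y * (Θ g)⁻¹ ∈ (S : Subgroup G) := by
      rw [hS]
      exact ⟨_, h, by simp⟩
    have h2 := sc_conj hT hy h1
    show Θ (g * y * g⁻¹) ∈ T
    simpa using h2
  let N : Subgroup (UU n F) := T₀.subgroupOf (UU n F)
  have hN : N.Normal := ⟨fun x hx g => Subgroup.mem_subgroupOf.2 (by
    have h1 := hconj x.1 (Subgroup.mem_subgroupOf.1 hx) g.1 (mul_mem (mul_mem g.2 x.2) (inv_mem g.2))
    simpa using h1)⟩
  have hne : N ≠ ⊥ := by
    obtain ⟨⟨t, ht⟩, ht1⟩ := (Subgroup.ne_bot_iff_exists_ne_one).1 hbot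
    have h1 := hTS ht
    rw [hS] at h1
    obtain ⟨y, hy, rfl⟩ := h1
    intro hbot2
    have h2 : (⟨y, hy⟩ : UU n F) ∈ N := Subgroup.mem_subgroupOf.2 ht
    rw [hbot2, Subgroup.mem_bot] at h2
    apply ht1
    apply Subtype.ext
    have h3 : y = 1 := congrArg (fun z : UU n F => (z : SLn n F)) h2
    simp [h3]
  obtain ⟨z, hzN, hzc, hz1⟩ := Cfsg.Agent.Lib.Char.exists_mem_center_of_normal (UU_pGroup (F := F) p hn0) N hN hne
  let f : Fin n := ⟨0, hn0⟩
  let l : Fin n := ⟨n - 1, by omega⟩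
  have hflt : f < l := by
    show 0 < n - 1
    omega
  have hfl : f ≠ l := hflt.ne
  have hz_form : z.1 = xH f l hfl (Multiplicative.ofAdd (z.1.1 f l)) := by
    refine central_UU z.2 (fun c d hcd hlt => ?_) f l rfl (by show n - 1 + 1 = n; omega) hfl
    have h1 := Subgroup.mem_center_iff.1 hzc ⟨_, xH_mem_UU c d hcd hlt (Multiplicative.ofAdd (1 : F))⟩
    have h2 := congrArg (fun y : UU n F => (y : SLn n F)) h1
    exact h2.symm
  set α := z.1.1 f l with hαd
  have hα : α ≠ 0 := by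
    intro h0
    apply hz1
    apply Subtype.ext
    rw [hz_form, h0, ofAdd_zero, map_one]
    rfl
  have hzT : xH f l hfl (Multiplicative.ofAdd α) ∈ T₀ := by
    rw [← hz_form]
    exact Subgroup.mem_subgroupOf.1 hzN
  have h3 : ∀ β : F, xH f l hfl (Multiplicative.ofAdd β) ∈ T₀ := by
    intro β
    by_cases hβ : β = 0
    · rw [hβ, ofAdd_zero, map_one]
      exact one_mem _
    let γ : Fˣ := Units.mk0 (β / α) (div_ne_zero hβ hα)
    let b₁ : Fin n := ⟨1, by omega⟩
    have hfb : f ≠ b₁ := by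
      intro e
      have := congrArg Fin.val e
      simp [f, b₁] at this
    have hlf : l ≠ f := hfl.symm
    have hlb : l ≠ b₁ := by
      intro e
      have := congrArg Fin.val e
      simp only [l, b₁] at this
      omega
    have hm : IsMono (hH f b₁ hfb γ).1 1 := hH_mem f b₁ hfb γ
    have e := mono_conj_xH (m := hH f b₁ hfb γ) (w := 1) hm hfl hfl rfl rfl α
    have e1 : (hH f b₁ hfb γ).1 f f = (γ : F) := by
      rw [hH_apply, if_pos rfl, if_pos rfl]
    have e2 : ((hH f b₁ hfb γ)⁻¹ : SLn n F).1 l l = 1 := by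
      rw [← map_inv, hH_apply, if_pos rfl, if_neg hlf, if_neg hlb]
    rw [e1, e2, mul_one] at e
    have e3 : (γ : F) * α = β := by
      show β / α * α = β
      field_simp
    rw [e3] at e
    have h4 := hconj _ hzT (hH f b₁ hfb γ)
    rw [e] at h4
    exact h4 (xH_mem_UU f l hfl hflt _)
  have h4 : ∀ c d (hcd : c ≠ d), c < d → ∀ t : F, xH c d hcd (Multiplicative.ofAdd t) ∈ T₀ := by
    intro c d hcd hlt t
    obtain ⟨w, hw1, hw2⟩ := exists_perm hfl hcd
    obtain ⟨m, hm⟩ := exists_mono (F := F) hn0 w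
    have hκ1 : m.1 c f ≠ 0 := by
      have := (mono_coef_ne hm f).1
      rwa [hw1] at this
    have hκ2 : (m⁻¹ : SLn n F).1 l d ≠ 0 := by
      have := (mono_coef_ne hm l).2
      rwa [hw2] at this
    set κ := m.1 c f * (m⁻¹ : SLn n F).1 l d with hκ
    have hκ0 : κ ≠ 0 := mul_ne_zero hκ1 hκ2
    have e := mono_conj_xH hm hfl hcd hw1 hw2 (κ⁻¹ * t)
    rw [← hκ, mul_inv_cancel_left₀ hκ0] at e
    have h5 := hconj _ (h3 (κ⁻¹ * t)) m
    rw [e] at h5
    exact h5 (xH_mem_UU c d hcd hlt _)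
  have h5 := UU_gen T₀ h4
  refine le_antisymm hTS ?_
  rw [hS]
  rintro _ ⟨u, hu, rfl⟩
  exact h5 hu


/-- The `p`-elements normalizing `R`. -/
abbrev XR (p : ℕ) (R : Subgroup G) : Subgroup G :=
  Subgroup.closure {g : G | g ∈ Subgroup.normalizer (R : Set G) ∧ ∃ k : ℕ, orderOf g = p ^ k}

omit hk hS [CharP F p] in
lemma pElt_mem {R : Subgroup G} {g : G} (hg : g ∈ Subgroup.normalizer (R : Set G)) {k : ℕ} (h : g ^ p ^ k = 1) : g ∈ XR p R := by
  refine Subgroup.subset_closure ⟨hg, ?_⟩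
  obtain ⟨j, -, hj⟩ := (Nat.dvd_prime_pow hp.out).1 (orderOf_dvd_of_pow_eq_one h)
  exact ⟨j, hj⟩

lemma RR_le {a b : Fin n} (hadj : a.val + 1 = b.val) : (UA (F := F) hadj).map Θ ≤ (S : Subgroup G) := by
  rw [hS]
  exact Subgroup.map_mono (UA_le hadj)

lemma S_le_normalizer {a b : Fin n} (hadj : a.val + 1 = b.val) :
    (S : Subgroup G) ≤ Subgroup.normalizer (((UA (F := F) hadj).map Θ : Subgroup G) : Set G) := by
  rw [hS]
  rintro _ ⟨v, hv, rfl⟩
  refine mem_normalizer_of_forall ?_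
  rintro _ ⟨y, hy, rfl⟩
  exact ⟨v * y * v⁻¹, UA_normal hv hy, by simp⟩

omit hk hS S [CharP F p] hp in
lemma w_normalizer {a b : Fin n} (hab : a ≠ b) (hadj : a.val + 1 = b.val) :
    Θ (sE a b hab) ∈ Subgroup.normalizer (((UA (F := F) hadj).map Θ : Subgroup G) : Set G) := by
  refine mem_normalizer_of_forall ?_
  rintro _ ⟨y, hy, rfl⟩
  have hs' : IsMono ((sE a b hab)⁻¹ : SLn n F).1 (Equiv.swap a b) := by
    have := IsMono.inv (sE_isMono (F := F) a b hab)
    simpa using this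
  have h1 := UA_swap hs' hy
  rw [inv_inv] at h1
  exact ⟨_, h1, by simp⟩

lemma w_trap (hn : 0 < n) {a b : Fin n} (hab : a ≠ b) (hadj : a.val + 1 = b.val) :
    ∀ x ∈ (S : Subgroup G), (Θ (sE a b hab))⁻¹ * x * Θ (sE a b hab) ∈ (S : Subgroup G) →
      x ∈ (UA (F := F) hadj).map Θ := by
  intro x hx h
  rw [hS] at hx h
  obtain ⟨y, hy, rfl⟩ := hx
  have h1 : Θ ((sE a b hab)⁻¹ * y * sE a b hab) ∈ (UU n F).map Θ := by
    simpa using h
  have h2 := mono_conj_mem Θ hk hn (sE_isMono a b hab) hy h1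
  exact ⟨y, ⟨hy, UA_entry hadj (sE_isMono a b hab) h2⟩, rfl⟩

theorem RR_good (hs : Function.Surjective Θ) (hn : 3 ≤ n) {a b : Fin n} (hab : a ≠ b) (hadj : a.val + 1 = b.val) :
    (groupFusionSystem (S : Subgroup G)).IsFullyNormalized ((UA (F := F) hadj).map Θ) ∧
      (groupFusionSystem (S : Subgroup G)).IsRadical p ((UA (F := F) hadj).map Θ) ∧
      (groupFusionSystem (S : Subgroup G)).IsCentric ((UA (F := F) hadj).map Θ) := by
  have hn0 : 0 < n := by omega
  have hRS := RR_le Θ hk S hS hadj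
  have hSN := S_le_normalizer Θ hk S hS hadj
  have hC : ∀ x, (∀ r ∈ (UA (F := F) hadj).map Θ, r * x = x * r) → x ∈ (UA (F := F) hadj).map Θ := by
    intro x h
    obtain ⟨x', rfl⟩ := hs x
    obtain ⟨v, hv, e⟩ := cent_lift Θ hk p hn hadj h
    exact ⟨v, hv, e⟩
  refine ⟨?_, ?_, ?_⟩
  · exact isFullyNormalized_of_normalizerIn_eq hRS (inf_eq_left.2 hSN)
  · exact isRadical_of S hRS hSN hC (w_normalizer Θ hab hadj) (w_trap Θ hk S hS hn0 hab hadj)
  · exact isCentric_of_cent hRS hC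

theorem hH_mem_X (hn : 0 < n) {a b : Fin n} (hab : a ≠ b) (hadj : a.val + 1 = b.val) (c : Fˣ) :
    Θ (hH a b hab c) ∈ XR p ((UA (F := F) hadj).map Θ) := by
  have hlt : a < b := by
    show a.val < b.val
    omega
  have hSN := S_le_normalizer Θ hk S hS hadj
  have hw := w_normalizer Θ hab hadj
  have hpw : ∀ t : Multiplicative F, ∃ k : ℕ, xH a b hab t ^ p ^ k = 1 := by
    intro t
    obtain ⟨k, hk1⟩ := UU_pGroup (F := F) p hn ⟨_, xH_mem_UU a b hab hlt t⟩
    refine ⟨k, ?_⟩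
    have := congrArg (fun z : UU n F => (z : SLn n F)) hk1
    simpa using this
  have hN : ∀ t : Multiplicative F, Θ (xH a b hab t) ∈ Subgroup.normalizer (((UA (F := F) hadj).map Θ : Subgroup G) : Set G) := by
    intro t
    apply hSN
    rw [hS]
    exact ⟨_, xH_mem_UU a b hab hlt t, rfl⟩
  have hX : ∀ t : Multiplicative F, xH a b hab t ∈ (XR p ((UA (F := F) hadj).map Θ)).comap Θ := by
    intro t
    obtain ⟨k, hk1⟩ := hpw t
    refine pElt_mem (k := k) (hN t) ?_
    rw [← map_pow, hk1, map_one]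
  have hY : ∀ t : Multiplicative F, sE a b hab * xH a b hab t * (sE a b hab)⁻¹ ∈ (XR p ((UA (F := F) hadj).map Θ)).comap Θ := by
    intro t
    obtain ⟨k, hk1⟩ := hpw t
    refine pElt_mem (k := k) ?_ ?_
    · rw [map_mul, map_mul, map_inv]
      exact mul_mem (mul_mem hw (hN t)) (inv_mem hw)
    · rw [← map_pow, conj_pow, hk1, mul_one, mul_inv_cancel, map_one]
  have e : hH a b hab c = (xH a b hab (Multiplicative.ofAdd (c : F)) * (sE a b hab * xH a b hab (Multiplicative.ofAdd ((c⁻¹ : Fˣ) : F)) * (sE a b hab)⁻¹) * xH a b hab (Multiplicative.ofAdd (c : F))) *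
      (xH a b hab (Multiplicative.ofAdd (1 : F)) * (sE a b hab * xH a b hab (Multiplicative.ofAdd (1 : F)) * (sE a b hab)⁻¹) * xH a b hab (Multiplicative.ofAdd (1 : F)))⁻¹ := by
    have h1 := congrArg (iot a b hab) (Hm_eq (F := F) c)
    simp only [map_mul, map_inv] at h1
    exact h1
  show hH a b hab c ∈ (XR p ((UA (F := F) hadj).map Θ)).comap Θ
  rw [e]
  exact mul_mem (mul_mem (mul_mem (hX _) (hY _)) (hX _)) (inv_mem (mul_mem (mul_mem (hX _) (hY _)) (hX _)))

theorem gen_eq (hs : Function.Surjective Θ) (hn : 3 ≤ n) :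
    autInducedBy ⊤ (S : Subgroup G) = ⨆ (R : Subgroup G)
      (_ : (groupFusionSystem (S : Subgroup G)).IsFullyNormalized R ∧
        (groupFusionSystem (S : Subgroup G)).IsRadical p R ∧ (groupFusionSystem (S : Subgroup G)).IsCentric R),
      autInducedBy (Subgroup.closure {g : G | g ∈ Subgroup.normalizer (R : Set G) ∧ ∃ k : ℕ, orderOf g = p ^ k})
        (S : Subgroup G) := by
  have hn0 : 0 < n := by omega
  apply le_antisymm
  · set M := ⨆ (R : Subgroup G)
      (_ : (groupFusionSystem (S : Subgroup G)).IsFullyNormalized R ∧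
        (groupFusionSystem (S : Subgroup G)).IsRadical p R ∧ (groupFusionSystem (S : Subgroup G)).IsCentric R),
      autInducedBy (Subgroup.closure {g : G | g ∈ Subgroup.normalizer (R : Set G) ∧ ∃ k : ℕ, orderOf g = p ^ k})
        (S : Subgroup G) with hM
    have hmem : ∀ {a b : Fin n} (hab : a ≠ b) (hadj : a.val + 1 = b.val) (g : G),
        g ∈ XR p ((UA (F := F) hadj).map Θ) → g ∈ Subgroup.normalizer ((S : Subgroup G) : Set G) →
        g ∈ conjPre (S : Subgroup G) M := by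
      intro a b hab hadj g hg hN
      refine ⟨hN, ?_⟩
      have h1 := conjAut_mem (K := XR p ((UA (F := F) hadj).map Θ)) hg hN
      have h2 : autInducedBy (XR p ((UA (F := F) hadj).map Θ)) (S : Subgroup G) ≤ M :=
        le_iSup₂_of_le (f := fun (R : Subgroup G) (_ : (groupFusionSystem (S : Subgroup G)).IsFullyNormalized R ∧
          (groupFusionSystem (S : Subgroup G)).IsRadical p R ∧ (groupFusionSystem (S : Subgroup G)).IsCentric R) =>
            autInducedBy (Subgroup.closure {g : G | g ∈ Subgroup.normalizer (R : Set G) ∧ ∃ k : ℕ, orderOf g = p ^ k})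
              (S : Subgroup G)) _ (RR_good Θ hk S hS hs hn hab hadj) le_rfl
      exact h2 h1
    let f : Fin n := ⟨0, hn0⟩
    let b₁ : Fin n := ⟨1, by omega⟩
    have hfb : f ≠ b₁ := by
      intro e
      have := congrArg Fin.val e
      simp [f, b₁] at this
    have hfadj : f.val + 1 = b₁.val := rfl
    have hUK : ∀ u ∈ UU n F, Θ u ∈ conjPre (S : Subgroup G) M := by
      intro u hu
      have hSmem : Θ u ∈ (S : Subgroup G) := by
        rw [hS]
        exact ⟨u, hu, rfl⟩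
      refine hmem hfb hfadj _ ?_ (Subgroup.le_normalizer hSmem)
      obtain ⟨k, hk1⟩ := UU_pGroup (F := F) p hn0 ⟨u, hu⟩
      refine pElt_mem (k := k) (S_le_normalizer Θ hk S hS hfadj hSmem) ?_
      have := congrArg (fun z : UU n F => (z : SLn n F)) hk1
      have h2 : u ^ p ^ k = 1 := by simpa using this
      rw [← map_pow, h2, map_one]
    have hTnorm : ∀ t ∈ TT n F, Θ t ∈ Subgroup.normalizer ((S : Subgroup G) : Set G) := by
      intro t ht
      rw [hS]
      refine mem_normalizer_of_forall ?_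
      rintro _ ⟨y, hy, rfl⟩
      have h1 := TT_conj_UU (inv_mem ht) hy
      rw [inv_inv] at h1
      exact ⟨_, h1, by simp⟩
    have hTK : TT n F ≤ (conjPre (S : Subgroup G) M).comap Θ := by
      refine TT_le _ fun a b hab hadj c => ?_
      exact hmem hab hadj _ (hH_mem_X Θ hk S hS hn0 hab hadj c) (hTnorm _ (hH_mem a b hab c))
    refine (Subgroup.closure_le _).2 ?_
    rintro α ⟨g, -, hgv⟩
    have hgN : g ∈ Subgroup.normalizer ((S : Subgroup G) : Set G) := mem_normalizer_of_conj hgv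
    have hα : conjAut (S : Subgroup G) g hgN = α := by
      ext x
      rw [conjAut_coe, hgv]
    obtain ⟨x, rfl⟩ := hs g
    have hgN' : Θ x ∈ Subgroup.normalizer (((UU n F).map Θ : Subgroup G) : Set G) := by
      rw [← hS]
      exact hgN
    obtain ⟨u, hu, t, ht, rfl⟩ := norm_form Θ hk hn0 hgN'
    have key : Θ (u * t) ∈ conjPre (S : Subgroup G) M := by
      rw [map_mul]
      exact mul_mem (hUK u hu) (hTK ht)
    obtain ⟨_, h2⟩ := key
    rw [← hα]
    exact h2
  · exact iSup₂_le fun R _ => autInducedBy_mono le_top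

theorem isSimple_of_theta (hs : Function.Surjective Θ) (hn : 3 ≤ n) : (groupFusionSystem (S : Subgroup G)).IsSimple p := by
  have hn0 : 0 < n := by omega
  refine isSimple_of_generated S ?_ (sc_trivial Θ hk S hS hn) (gen_eq Θ hk S hS hs hn)
  intro hbot
  let f : Fin n := ⟨0, hn0⟩
  let b₁ : Fin n := ⟨1, by omega⟩
  have hfb : f ≠ b₁ := by
    intro e
    have := congrArg Fin.val e
    simp [f, b₁] at this
  have hlt : f < b₁ := by
    show 0 < 1
    omega
  have hy := xH_mem_UU (F := F) f b₁ hfb hlt (Multiplicative.ofAdd 1)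
  have h1 : Θ (xH f b₁ hfb (Multiplicative.ofAdd (1 : F))) ∈ (S : Subgroup G) := by
    rw [hS]
    exact ⟨_, hy, rfl⟩
  rw [hbot, Subgroup.mem_bot] at h1
  have h2 := eq_of_map_eq Θ hk hn0 (g := xH f b₁ hfb (Multiplicative.ofAdd (1 : F))) (y := 1) hy.2 (one_mem _)
    (by rw [h1, map_one])
  have h3 := congrArg (fun g : SLn n F => g.1 f b₁) h2
  simp only [xH_entry, Matrix.SpecialLinearGroup.coe_one, toAdd_ofAdd] at h3
  rw [Matrix.one_apply_ne hfb] at h3
  exact one_ne_zero h3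

end Main

/-- The main theorem. -/
theorem psl_simple (hn : 3 ≤ n) (S : Sylow p (Cfsg.Agent.Lib.GLFlag.PSLn n F)) :
    (groupFusionSystem (S : Subgroup (Cfsg.Agent.Lib.GLFlag.PSLn n F))).IsSimple p := by
  have hn0 : 0 < n := by omega
  have hk₀ : (Cfsg.Agent.Lib.GLFlag.pSL (n := n) (F := F)).ker = Subgroup.center (SLn n F) := QuotientGroup.ker_mk' _
  obtain ⟨S₀, hS₀⟩ := exists_sylow Cfsg.Agent.Lib.GLFlag.pSL hk₀ p hn0 Cfsg.Agent.Lib.GLFlag.pSL_surj
  obtain ⟨h, rfl⟩ := MulAction.exists_smul_eq (Cfsg.Agent.Lib.GLFlag.PSLn n F) S₀ S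
  let Θ : SLn n F →* Cfsg.Agent.Lib.GLFlag.PSLn n F := (MulAut.conj h).toMonoidHom.comp Cfsg.Agent.Lib.GLFlag.pSL
  have hs : Function.Surjective Θ := (MulAut.conj h).surjective.comp Cfsg.Agent.Lib.GLFlag.pSL_surj
  have hk : Θ.ker = Subgroup.center (SLn n F) := by
    refine Eq.trans ?_ hk₀
    ext y
    rw [MonoidHom.mem_ker, MonoidHom.mem_ker]
    show h * Cfsg.Agent.Lib.GLFlag.pSL y * h⁻¹ = 1 ↔ _
    rw [conj_eq_one_iff]
  have hS : ((h • S₀ : Sylow p _) : Subgroup (Cfsg.Agent.Lib.GLFlag.PSLn n F)) = (UU n F).map Θ := by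
    rw [Sylow.coe_subgroup_smul, hS₀]
    ext x
    rw [Subgroup.mem_pointwise_smul_iff_inv_smul_mem]
    constructor
    · rintro ⟨y, hy, e⟩
      refine ⟨y, hy, ?_⟩
      have e' : Cfsg.Agent.Lib.GLFlag.pSL y = (MulAut.conj h)⁻¹ • x := e
      show h * Cfsg.Agent.Lib.GLFlag.pSL y * h⁻¹ = x
      rw [e']
      simp [MulAut.smul_def, MulAut.conj_apply, mul_assoc]
    · rintro ⟨y, hy, rfl⟩
      refine ⟨y, hy, ?_⟩
      show Cfsg.Agent.Lib.GLFlag.pSL y = (MulAut.conj h)⁻¹ • (h * Cfsg.Agent.Lib.GLFlag.pSL y * h⁻¹)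
      simp [MulAut.smul_def, MulAut.conj_apply, mul_assoc]
  exact isSimple_of_theta Θ hk _ hS hs hn

end Cfsg.Agent.Lib.PSLFus
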